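import Cfsg.Agent.Lib.SigmaFour.Norm

/-!
# Solvable groups with a fixed-point-free automorphism `σ` with `σ ^ 4 = 1` have nilpotent derived subgroup
-/

set_option autoImplicit false
set_option linter.style.haveILetI false
set_option linter.unusedSectionVars false

namespace Cfsg.Agent.Lib.SigmaFour.Main

open Subgroup
open scoped commutatorElement

/-- Minimal invariant subgroups of solvable groups are abelian `p`-groups. -/
theorem exists_min_inv {X : Type*} [Group X] [Finite X] [Nontrivial X] (hsol : Group.IsSolvable X)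
    (𝒜 : Set (MulAut X)) :
    ∃ (N : Subgroup X) (p : ℕ), N ≠ ⊥ ∧ p.Prime ∧ (∀ α ∈ 𝒜, ∀ x ∈ N, α x ∈ N) ∧
      (∀ x ∈ N, ∀ y ∈ N, x * y = y * x) ∧ IsPGroup p N ∧
      ∀ M : Subgroup X, M ≤ N → M ≠ ⊥ → (∀ α ∈ 𝒜, ∀ x ∈ M, α x ∈ M) → M = N := by
  classical
  let F : Set (Subgroup X) := {N | N ≠ ⊥ ∧ ∀ α ∈ 𝒜, ∀ x ∈ N, α x ∈ N}
  have hF : F.Nonempty := ⟨⊤, top_ne_bot, fun _ _ _ _ => mem_top _⟩
  obtain ⟨N, ⟨hN0, hNinv⟩, hmin⟩ := (wellFounded_lt (α := Subgroup X)).has_min F hF
  have hmin' : ∀ M : Subgroup X, M ≤ N → M ≠ ⊥ → (∀ α ∈ 𝒜, ∀ x ∈ M, α x ∈ M) → M = N := by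
    intro M hMN hM0 hMinv
    by_contra hne
    exact hmin M ⟨hM0, hMinv⟩ (lt_of_le_of_ne hMN hne)
  -- `N` is abelian
  have hcomm : ⁅N, N⁆ = ⊥ := by
    by_contra hne
    have h1 : ⁅N, N⁆ ≤ N := commutator_le_self N
    have h2 := hmin' _ h1 hne (by
      intro α hα x hx
      have h3 : (⁅N, N⁆).map (α : X →* X) ≤ ⁅N, N⁆ := by
        rw [map_commutator]
        apply commutator_mono <;>
        · rintro _ ⟨y, hy, rfl⟩
          exact hNinv α hα y hy
      exact h3 ⟨x, hx, rfl⟩)
    have h4 := hsol.commutator_lt_of_ne_bot hN0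
    rw [h2] at h4
    exact lt_irrefl _ h4
  have hc : ∀ x ∈ N, ∀ y ∈ N, x * y = y * x := by
    intro x hx y hy
    have h1 : ⁅x, y⁆ ∈ ⁅N, N⁆ := commutator_mem_commutator hx hy
    rw [hcomm, mem_bot] at h1
    exact commutatorElement_eq_one_iff_mul_comm.1 h1
  -- a prime dividing the order of `N`
  haveI hNnt : Nontrivial N := (nontrivial_iff_ne_bot N).2 hN0
  have hcard1 : Nat.card N ≠ 1 := by
    intro h
    have := Finite.one_lt_card_iff_nontrivial (α := N) |>.2 hNnt
    omega
  let p := (Nat.card N).minFac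
  have hp : p.Prime := Nat.minFac_prime hcard1
  haveI : Fact p.Prime := ⟨hp⟩
  obtain ⟨a, ha⟩ := exists_prime_orderOf_dvd_card' p (Nat.minFac_dvd (Nat.card N))
  -- the elements of order dividing `p`
  let M : Subgroup X :=
    { carrier := {x | x ∈ N ∧ x ^ p = 1}
      mul_mem' := by
        rintro x y ⟨hx, hx1⟩ ⟨hy, hy1⟩
        refine ⟨N.mul_mem hx hy, ?_⟩
        rw [(show Commute x y from hc x hx y hy).mul_pow, hx1, hy1, one_mul]
      one_mem' := ⟨N.one_mem, one_pow _⟩
      inv_mem' := by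
        rintro x ⟨hx, hx1⟩
        exact ⟨N.inv_mem hx, by rw [inv_pow, hx1, inv_one]⟩ }
  have hM0 : M ≠ ⊥ := by
    intro h
    have h1 : (a : X) ∈ M := ⟨a.2, by
      have := pow_orderOf_eq_one a
      rw [ha] at this
      exact congrArg Subtype.val this⟩
    rw [h, mem_bot] at h1
    have h2 : a = 1 := Subtype.ext h1
    rw [h2, orderOf_one] at ha
    exact hp.one_lt.ne ha
  have hMN : M = N := hmin' M (fun x hx => hx.1) hM0 (by
    rintro α hα x ⟨hx, hx1⟩
    exact ⟨hNinv α hα x hx, by rw [← map_pow, hx1, map_one]⟩)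
  refine ⟨N, p, hN0, hp, hNinv, hc, ?_, hmin'⟩
  intro x
  refine ⟨1, ?_⟩
  apply Subtype.ext
  have : (x : X) ∈ M := by rw [hMN]; exact x.2
  simpa using this.2

/-- Main module-level statement. -/
theorem comm_of_irreducible {V : Type*} [CommGroup V] [Finite V] [Nontrivial V] {p : ℕ} (hp : p.Prime)
    (hVp : IsPGroup p V) (s : MulAut V) (hs : s ^ 4 = 1) (hfix : ∀ v, s v = v → v = 1)
    (Q : Subgroup (MulAut V)) (hQsol : Group.IsSolvable Q) (hQs : ∀ q ∈ Q, s * q * s⁻¹ ∈ Q)
    (hQf : ∀ q ∈ Q, s * q * s⁻¹ = q → q = 1)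
    (hirr : ∀ W : Subgroup V, W ≠ ⊥ → (∀ q ∈ Q, ∀ w ∈ W, q w ∈ W) → (∀ w ∈ W, s w ∈ W) → W = ⊤) :
    ∀ a ∈ Q, ∀ b ∈ Q, a * b = b * a := by
  classical
  by_cases hQt : Q = ⊥
  · intro a ha b hb
    rw [hQt, mem_bot] at ha hb
    rw [ha, hb]
  haveI hQnt : Nontrivial Q := (nontrivial_iff_ne_bot Q).2 hQt
  haveI : Finite (MulAut V) := inferInstance
  -- the automorphism of `Q` induced by `s`
  let θ₀ : Q →* Q :=
    { toFun := fun q => ⟨s * q * s⁻¹, hQs q q.2⟩
      map_one' := by
        apply Subtype.ext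
        simp
      map_mul' := by
        intro a b
        apply Subtype.ext
        simp only [Subgroup.coe_mul]
        group }
  have hθinj : Function.Injective θ₀ := by
    intro a b hab
    have h1 : s * (a : MulAut V) * s⁻¹ = s * (b : MulAut V) * s⁻¹ := congrArg Subtype.val hab
    apply Subtype.ext
    exact mul_left_cancel (mul_right_cancel h1)
  let θ : MulAut Q := MulEquiv.ofBijective θ₀ ⟨hθinj, Finite.injective_iff_surjective.1 hθinj⟩
  have hθ : ∀ q : Q, ((θ q : Q) : MulAut V) = s * q * s⁻¹ := fun q => rfl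
  have hθfix : ∀ q : Q, θ q = q → q = 1 := by
    intro q hq
    apply Subtype.ext
    exact hQf q q.2 (congrArg Subtype.val hq)
  -- minimal subgroup
  obtain ⟨B₀, r, hB₀0, hr, hB₀inv, hB₀c, hB₀p, hB₀min⟩ :=
    exists_min_inv hQsol (Set.range (MulAut.conj (G := Q)) ∪ {θ})
  let B : Subgroup (MulAut V) := B₀.map Q.subtype
  have hBmem : ∀ b, b ∈ B ↔ ∃ h : b ∈ Q, (⟨b, h⟩ : Q) ∈ B₀ := by
    intro b
    constructor
    · rintro ⟨x, hx, rfl⟩
      exact ⟨x.2, hx⟩
    · rintro ⟨h, hb⟩
      exact ⟨_, hb, rfl⟩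
  have hBc : ∀ a ∈ B, ∀ b ∈ B, a * b = b * a := by
    rintro _ ⟨a, ha, rfl⟩ _ ⟨b, hb, rfl⟩
    exact congrArg Subtype.val (hB₀c a ha b hb)
  have hBs : ∀ b ∈ B, s * b * s⁻¹ ∈ B := by
    rintro _ ⟨a, ha, rfl⟩
    exact ⟨θ a, hB₀inv θ (Or.inr rfl) a ha, rfl⟩
  have hBs3 : ∀ b ∈ B, s⁻¹ * b * s ∈ B := by
    intro b hb
    have h1 := hBs _ (hBs _ (hBs b hb))
    have hs3 : s⁻¹ = s ^ 3 := by
      rw [eq_comm, ← mul_eq_one_iff_eq_inv, ← pow_succ, hs]
    have e : s⁻¹ * b * s = s * (s * (s * b * s⁻¹) * s⁻¹) * s⁻¹ := by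
      have e1 : s⁻¹ * b * s = s ^ 3 * b * (s ^ 3)⁻¹ := by
        rw [← hs3, inv_inv]
      rw [e1]
      simp only [pow_succ, pow_zero, one_mul]
      group
    rw [e]
    exact h1
  have hBQ : ∀ q ∈ Q, ∀ b ∈ B, q * b * q⁻¹ ∈ B := by
    rintro q hq _ ⟨a, ha, rfl⟩
    exact ⟨MulAut.conj (⟨q, hq⟩ : Q) a, hB₀inv _ (Or.inl ⟨_, rfl⟩) a ha, rfl⟩
  have hBf : ∀ b ∈ B, s * b * s⁻¹ = b → b = 1 := by
    rintro _ ⟨a, ha, rfl⟩ h
    have h1 : θ a = a := Subtype.ext h
    have := hθfix a h1
    rw [this]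
    rfl
  -- the fixed points of `B`
  let W : Subgroup V :=
    { carrier := {v | ∀ b ∈ B, b v = v}
      mul_mem' := by
        intro x y hx hy b hb
        rw [map_mul, hx b hb, hy b hb]
      one_mem' := fun b _ => map_one b
      inv_mem' := by
        intro x hx b hb
        rw [map_inv, hx b hb] }
  have hWQ : ∀ q ∈ Q, ∀ w ∈ W, q w ∈ W := by
    intro q hq w hw b hb
    have h1 : q⁻¹ * b * q ∈ B := by
      have := hBQ q⁻¹ (Q.inv_mem hq) b hb
      rwa [inv_inv] at this
    have h2 := hw _ h1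
    have h3 : b (q w) = q ((q⁻¹ * b * q) w) := by
      simp [MulAut.mul_apply]
    rw [h3, h2]
  have hWs : ∀ w ∈ W, s w ∈ W := by
    intro w hw b hb
    have h2 := hw _ (hBs3 b hb)
    have h3 : b (s w) = s ((s⁻¹ * b * s) w) := by
      simp [MulAut.mul_apply]
    rw [h3, h2]
  have hB0 : B ≠ ⊥ := by
    intro h
    apply hB₀0
    rw [eq_bot_iff]
    intro x hx
    have h1 : (x : MulAut V) ∈ B := ⟨x, hx, rfl⟩
    rw [h, mem_bot] at h1
    exact (mem_bot).2 (Subtype.ext h1)
  have hW1 : W = ⊥ := by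
    by_contra hne
    have h1 := hirr W hne hWQ hWs
    apply hB0
    rw [eq_bot_iff]
    intro b hb
    rw [mem_bot]
    apply MulEquiv.ext
    intro v
    have : v ∈ W := by rw [h1]; exact mem_top v
    exact this b hb
  have hB1 : ∀ v, (∀ b ∈ B, b v = v) → v = 1 := by
    intro v hv
    have : v ∈ W := hv
    rw [hW1, mem_bot] at this
    exact this
  -- coprimality
  have hBp : IsPGroup r B := by
    have h1 := hB₀p.map Q.subtype
    exact h1
  haveI : Fact p.Prime := ⟨hp⟩
  haveI : Fact r.Prime := ⟨hr⟩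
  have hrp : r ≠ p := by
    rintro rfl
    have hdvd : r ∣ Nat.card V := by
      obtain ⟨n, hn, hcard⟩ := hVp.nontrivial_iff_card.mp inferInstance
      rw [hcard]
      exact dvd_pow_self _ hn.ne'
    obtain ⟨b, hb, hb1⟩ := hBp.exists_fixed_point_of_prime_dvd_card_of_fixed_point V hdvd
      (a := 1) (by
        intro g
        exact map_one (g : MulAut V))
    apply hb1
    apply (hB1 b ?_).symm
    intro c hc
    exact hb ⟨c, hc⟩
  have hcop : (Nat.card B).Coprime (Nat.card V) := by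
    obtain ⟨n₁, h1⟩ := IsPGroup.iff_card.mp hBp
    obtain ⟨n₂, h2⟩ := IsPGroup.iff_card.mp hVp
    rw [h1, h2]
    exact Nat.Coprime.pow _ _ ((Nat.coprime_primes hr hp).2 hrp)
  have hsq := Norm.sq_inverts s hs hfix B hBc hBs hBf hcop hB1
  -- `s ^ 2` is central
  have hs2 : ∀ α : MulAut V, s * (s * α * s⁻¹) * s⁻¹ = α := by
    intro α
    apply MulEquiv.ext
    intro v
    have h22 : (s ^ 2)⁻¹ = s ^ 2 := by
      rw [inv_eq_iff_mul_eq_one, ← pow_add]
      exact hs
    have e : s * (s * α * s⁻¹) * s⁻¹ = s ^ 2 * α * (s ^ 2)⁻¹ := by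
      rw [pow_two]
      group
    rw [e, h22]
    simp only [MulAut.mul_apply]
    rw [hsq, hsq, map_inv, inv_inv]
  have hθ2 : ∀ q : Q, θ (θ q) = q := by
    intro q
    apply Subtype.ext
    rw [hθ, hθ]
    exact hs2 q
  -- `θ` inverts `Q`
  let f : Q → Q := fun q => q⁻¹ * θ q
  have hfinj : Function.Injective f := by
    intro a b hab
    have h1 : b * a⁻¹ = θ (b * a⁻¹) := by
      rw [map_mul, map_inv]
      have h2 : a⁻¹ * θ a = b⁻¹ * θ b := hab
      have h3 : θ b = b * (a⁻¹ * θ a) := by rw [h2]; group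
      rw [h3]
      group
    have h4 := hθfix _ h1.symm
    exact (mul_inv_eq_one.1 h4).symm
  have hfsurj : Function.Surjective f := Finite.injective_iff_surjective.1 hfinj
  have hinv : ∀ y : Q, θ y = y⁻¹ := by
    intro y
    obtain ⟨q, rfl⟩ := hfsurj y
    simp only [f, map_mul, map_inv, hθ2, mul_inv_rev, inv_inv]
  intro a ha b hb
  have h1 : θ (⟨a, ha⟩ * ⟨b, hb⟩ : Q) = θ ⟨a, ha⟩ * θ ⟨b, hb⟩ := map_mul _ _ _
  rw [hinv, hinv, hinv, mul_inv_rev] at h1
  have h2 := congrArg (·⁻¹) h1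
  simp only [mul_inv_rev, inv_inv] at h2
  exact congrArg Subtype.val h2

/-- `x ↦ x⁻¹ σ x` is injective, so its preimage of an invariant subgroup is the subgroup. -/
lemma mem_of_inv_mul_mem {G : Type*} [Group G] [Finite G] (σ : MulAut G) (hfpf : ∀ g : G, σ g = g → g = 1)
    (C : Subgroup G) (hC : ∀ x ∈ C, σ x ∈ C) (g : G) (hg : g⁻¹ * σ g ∈ C) : g ∈ C := by
  let f : C → C := fun c => ⟨(c : G)⁻¹ * σ c, C.mul_mem (C.inv_mem c.2) (hC c c.2)⟩
  have hf0 : ∀ a b : G, a⁻¹ * σ a = b⁻¹ * σ b → a = b := by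
    intro a b hab
    have h1 : σ (b * a⁻¹) = b * a⁻¹ := by
      rw [map_mul, map_inv]
      have h3 : σ b = b * (a⁻¹ * σ a) := by rw [hab]; group
      rw [h3]
      group
    have h4 := hfpf _ h1
    exact (mul_inv_eq_one.1 h4).symm
  have hf : Function.Injective f := by
    intro a b hab
    exact Subtype.ext (hf0 _ _ (congrArg Subtype.val hab))
  obtain ⟨c, hc⟩ := (Finite.injective_iff_surjective.1 hf) ⟨_, hg⟩
  have := hf0 _ _ (congrArg Subtype.val hc)
  rw [← this]
  exact c.2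

/-- The derived subgroup centralizes a minimal invariant normal subgroup. -/
theorem commutator_le_centralizer {G : Type*} [Group G] [Finite G] (hG : Group.IsSolvable G) (σ : MulAut G)
    (hσ : σ ^ 4 = 1) (hfpf : ∀ g : G, σ g = g → g = 1) (N : Subgroup G) (hN0 : N ≠ ⊥) {p : ℕ} (hp : p.Prime)
    [hNn : N.Normal] (hNσ : ∀ x ∈ N, σ x ∈ N) (hNc : ∀ x ∈ N, ∀ y ∈ N, x * y = y * x) (hNp : IsPGroup p N)
    (hmin : ∀ M : Subgroup G, M ≤ N → M ≠ ⊥ → M.Normal → (∀ x ∈ M, σ x ∈ M) → M = N)
    (a b : G) (v : N) : a * b * a⁻¹ * b⁻¹ * v = v * (a * b * a⁻¹ * b⁻¹) := by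
  classical
  haveI hnt : Nontrivial N := (nontrivial_iff_ne_bot N).2 hN0
  letI cgN : CommGroup N := { (inferInstance : Group N) with mul_comm := fun a b => Subtype.ext (hNc a a.2 b b.2) }
  -- restriction of `σ`
  let s₀ : N →* N := (σ.toMonoidHom.comp N.subtype).codRestrict N (fun x => hNσ x x.2)
  have hs₀inj : Function.Injective s₀ := by
    intro x y hxy
    exact Subtype.ext (σ.injective (congrArg Subtype.val hxy))
  let s : MulAut N := MulEquiv.ofBijective s₀ ⟨hs₀inj, Finite.injective_iff_surjective.1 hs₀inj⟩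
  have hsv : ∀ x : N, ((s x : N) : G) = σ x := fun x => rfl
  have hspow : ∀ (k : ℕ) (x : N), (((s ^ k) x : N) : G) = (σ ^ k) x := by
    intro k
    induction k with
    | zero => intro x; rfl
    | succ k ih =>
      intro x
      rw [pow_succ, pow_succ, MulAut.mul_apply, MulAut.mul_apply, ih, hsv]
  have hs4 : s ^ 4 = 1 := by
    apply MulEquiv.ext
    intro x
    apply Subtype.ext
    rw [hspow, hσ]
    rfl
  have hsfix : ∀ v : N, s v = v → v = 1 := by
    intro v hv
    apply Subtype.ext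
    exact hfpf v (congrArg Subtype.val hv)
  -- the action
  let ρ : G →* MulAut N := MulAut.conjNormal
  have hρ : ∀ (g : G) (x : N), ((ρ g x : N) : G) = g * x * g⁻¹ := fun g x => MulAut.conjNormal_apply g x
  have hQsol : Group.IsSolvable ρ.range := Group.isSolvable_of_surjective ρ.rangeRestrict_surjective
  have hconj : ∀ g : G, s * ρ g * s⁻¹ = ρ (σ g) := by
    intro g
    apply MulEquiv.ext
    intro x
    apply Subtype.ext
    obtain ⟨y, rfl⟩ := s.surjective x
    simp only [MulAut.mul_apply, MulAut.inv_apply_self]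
    rw [hsv, hρ, hρ, hsv, map_mul, map_mul, map_inv]
  have hker : ∀ g : G, g ∈ ρ.ker ↔ ∀ x : N, g * x * g⁻¹ = x := by
    intro g
    rw [MonoidHom.mem_ker]
    constructor
    · intro h x
      rw [← hρ, h]
      rfl
    · intro h
      apply MulEquiv.ext
      intro x
      apply Subtype.ext
      rw [hρ, h]
      rfl
  have hab := comm_of_irreducible hp hNp s hs4 hsfix ρ.range hQsol
    (by
      rintro _ ⟨g, rfl⟩
      exact ⟨σ g, (hconj g).symm⟩)
    (by
      rintro _ ⟨g, rfl⟩ h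
      rw [hconj] at h
      have h1 : g⁻¹ * σ g ∈ ρ.ker := by
        rw [MonoidHom.mem_ker, map_mul, map_inv, h, inv_mul_cancel]
      have h2 := mem_of_inv_mul_mem σ hfpf ρ.ker (by
        intro x hx
        rw [MonoidHom.mem_ker] at hx ⊢
        have h3 := hconj x
        rw [hx] at h3
        rw [← h3]
        simp) g h1
      exact h2)
    (by
      intro W hW0 hWQ hWs
      let M : Subgroup G := W.map N.subtype
      have hM : M = N := by
        apply hmin M
        · rintro _ ⟨x, -, rfl⟩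
          exact x.2
        · intro h
          apply hW0
          rw [eq_bot_iff]
          intro x hx
          have h1 : (x : G) ∈ M := ⟨x, hx, rfl⟩
          rw [h, mem_bot] at h1
          exact (mem_bot).2 (Subtype.ext h1)
        · refine ⟨?_⟩
          rintro _ ⟨x, hx, rfl⟩ g
          exact ⟨ρ g x, hWQ _ ⟨g, rfl⟩ x hx, hρ g x⟩
        · rintro _ ⟨x, hx, rfl⟩
          exact ⟨s x, hWs x hx, hsv x⟩
      rw [eq_top_iff]
      intro x _
      have h1 : (x : G) ∈ M := by rw [hM]; exact x.2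
      obtain ⟨y, hy, hyx⟩ := h1
      have : y = x := Subtype.ext hyx
      rw [← this]
      exact hy)
  have h1 := hab (ρ a) ⟨a, rfl⟩ (ρ b) ⟨b, rfl⟩
  have h2 : a * b * a⁻¹ * b⁻¹ ∈ ρ.ker := by
    rw [MonoidHom.mem_ker, map_mul, map_mul, map_mul, map_inv, map_inv, h1]
    group
  have h3 := (hker _).1 h2 v
  rw [mul_inv_eq_iff_eq_mul] at h3
  exact h3

/-- **Gorenstein–Herstein.** A solvable group with a fixed-point-free automorphism `σ`, `σ ^ 4 = 1`,
has nilpotent derived subgroup. -/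
theorem main {G : Type*} [Group G] [Finite G] (hG : Group.IsSolvable G) (σ : MulAut G) (hσ : σ ^ 4 = 1)
    (hfpf : ∀ g : G, σ g = g → g = 1) : Group.IsNilpotent (commutator G) := by
  induction hn : Nat.card G using Nat.strong_induction_on generalizing G with
  | _ n ih =>
    subst hn
    by_cases hnt : Nontrivial G
    swap
    · haveI : Subsingleton G := not_nontrivial_iff_subsingleton.1 hnt
      infer_instance
    obtain ⟨N, p, hN0, hp, hNinv, hNc, hNp, hNmin⟩ := exists_min_inv hG (Set.range (MulAut.conj (G := G)) ∪ {σ})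
    haveI hNn : N.Normal := ⟨fun x hx g => hNinv _ (Or.inl ⟨g, rfl⟩) x hx⟩
    have hNσ : ∀ x ∈ N, σ x ∈ N := fun x hx => hNinv _ (Or.inr rfl) x hx
    have hcent := commutator_le_centralizer hG σ hσ hfpf N hN0 hp hNσ hNc hNp (by
      intro M hMN hM0 hMn hMσ
      apply hNmin M hMN hM0
      rintro α (⟨g, rfl⟩ | rfl) x hx
      · exact hMn.conj_mem x hx g
      · exact hMσ x hx)
    have hmap : N.map (σ : G →* G) = N := by
      apply Subgroup.eq_of_le_of_card_ge
      · rintro _ ⟨x, hx, rfl⟩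
        exact hNσ x hx
      · exact le_of_eq (Nat.card_congr (σ.subgroupMap N).toEquiv)
    let σq : MulAut (G ⧸ N) := QuotientGroup.congr N N σ hmap
    have hσq : ∀ x : G, σq (x : G ⧸ N) = ((σ x : G) : G ⧸ N) := fun x => rfl
    have hσqpow : ∀ (k : ℕ) (x : G), (σq ^ k) (x : G ⧸ N) = (((σ ^ k) x : G) : G ⧸ N) := by
      intro k
      induction k with
      | zero => intro x; rfl
      | succ k ih' =>
        intro x
        rw [pow_succ, pow_succ, MulAut.mul_apply, MulAut.mul_apply, hσq, ih']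
    have hσq4 : σq ^ 4 = 1 := by
      apply MulEquiv.ext
      intro y
      induction y using QuotientGroup.induction_on with
      | H x =>
        rw [hσqpow, hσ]
        rfl
    have hσqfix : ∀ y : G ⧸ N, σq y = y → y = 1 := by
      intro y
      induction y using QuotientGroup.induction_on with
      | H x =>
        intro hx
        rw [hσq, eq_comm, QuotientGroup.eq] at hx
        have := mem_of_inv_mul_mem σ hfpf N hNσ x hx
        exact (QuotientGroup.eq_one_iff x).2 this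
    have hsol : Group.IsSolvable (G ⧸ N) := inferInstance
    have hcard : Nat.card (G ⧸ N) < Nat.card G := by
      have h1 := N.card_mul_index
      have h2 : 1 < Nat.card N := by
        haveI : Nontrivial N := (nontrivial_iff_ne_bot N).2 hN0
        exact Finite.one_lt_card
      have h3 : 0 < N.index := Nat.pos_of_ne_zero Subgroup.index_ne_zero_of_finite
      rw [Subgroup.index_eq_card] at h1 h3
      nlinarith
    have hq := ih _ hcard hsol σq hσq4 hσqfix rfl
    -- the map between derived subgroups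
    have hmapc : ∀ x ∈ commutator G, ((x : G) : G ⧸ N) ∈ commutator (G ⧸ N) := by
      intro x hx
      have h1 : (commutator G).map (QuotientGroup.mk' N) ≤ commutator (G ⧸ N) := by
        simp only [commutator_def, Subgroup.map_commutator]
        exact commutator_mono le_top le_top
      exact h1 ⟨x, hx, rfl⟩
    let f : commutator G →* commutator (G ⧸ N) :=
      ((QuotientGroup.mk' N).comp (commutator G).subtype).codRestrict _ (fun x => hmapc x x.2)
    haveI := hq
    refine Subgroup.isNilpotent_of_ker_le_center f ?_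
    intro x hx
    have hxN : (x : G) ∈ N := by
      rw [MonoidHom.mem_ker] at hx
      exact (QuotientGroup.eq_one_iff _).1 (congrArg Subtype.val hx)
    have hcc : commutator G ≤ centralizer (N : Set G) := by
      rw [commutator_def, Subgroup.commutator_le]
      intro a _ b _
      rw [Subgroup.mem_centralizer_iff]
      intro v hv
      exact (hcent a b ⟨v, hv⟩).symm
    rw [Subgroup.mem_center_iff]
    intro y
    apply Subtype.ext
    exact (Subgroup.mem_centralizer_iff.1 (hcc y.2)) x hxN |>.symm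

end Cfsg.Agent.Lib.SigmaFour.Main
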