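import Mathlib

/-!
# A fixed-point-free automorphism of order dividing 4 on an abelian group

Let `V` be a finite abelian group, `s` an automorphism with `s ^ 4 = 1` and no fixed points, and `B`
an abelian group of automorphisms of `V` normalized by `s`, without fixed points of `s`, of order
coprime to `|V|` and with no nontrivial fixed vectors. Then `s ^ 2` inverts `V`.
-/

set_option autoImplicit false
set_option linter.style.haveILetI false
set_option linter.unusedSectionVars false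

namespace Cfsg.Agent.Lib.SigmaFour.Norm

variable {V : Type*} [CommGroup V] [Finite V]

open scoped BigOperators

/-- The norm identity for a fixed-point-free automorphism with `t ^ 4 = 1`. -/
lemma norm_eq_one (t : MulAut V) (ht : t ^ 4 = 1) (hfix : ∀ v, t v = v → v = 1) (v : V) :
    v * t v * (t ^ 2) v * (t ^ 3) v = 1 := by
  apply hfix
  have h4 : (t ^ 4) v = v := by rw [ht]; rfl
  have h2 : (t ^ 2) v = t (t v) := by rw [pow_two]; rfl
  have h3 : (t ^ 3) v = t (t (t v)) := by rw [pow_succ, pow_two]; rfl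
  have h4' : t (t (t (t v))) = v := by
    have : (t ^ 4) v = t (t (t (t v))) := by rw [pow_succ, pow_succ, pow_two]; rfl
    rw [← this, h4]
  rw [h2, h3]
  simp only [map_mul, h4']
  rw [mul_comm v]
  simp only [mul_left_comm, mul_comm]

lemma aux {Γ : Type*} [Group Γ] (a b A C : Γ) (h : a * A⁻¹ = b * C⁻¹) (h1 : b⁻¹ * a = a * b⁻¹)
    (h2 : C⁻¹ * A = A * C⁻¹) : A * C⁻¹ = a * b⁻¹ := by
  have h3 : b⁻¹ * a = C⁻¹ * A := by
    have := congrArg (fun x => b⁻¹ * x * A) h
    simpa [mul_assoc] using this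
  rw [← h2, ← h3, h1]

lemma aux2 {Γ : Type*} [Group Γ] (y y' Y Y' : Γ) (h : y' * Y' * Y = Y * (y' * Y')) (h2 : y' * Y = Y * y') :
    y * y' * (Y' * Y) = y * Y * (y' * Y') := by
  calc y * y' * (Y' * Y) = y * (y' * Y' * Y) := by group
    _ = y * (Y * (y' * Y')) := by rw [h]
    _ = y * Y * (y' * Y') := by group

section Main

variable (s : MulAut V) (hs : s ^ 4 = 1) (hfix : ∀ v, s v = v → v = 1)
variable (B : Subgroup (MulAut V)) (hBc : ∀ a ∈ B, ∀ b ∈ B, a * b = b * a)
variable (hBs : ∀ b ∈ B, s * b * s⁻¹ ∈ B) (hBf : ∀ b ∈ B, s * b * s⁻¹ = b → b = 1)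
variable (hcop : (Nat.card B).Coprime (Nat.card V)) (hB1 : ∀ v, (∀ b ∈ B, b v = v) → v = 1)

include hs hfix hBc hBs hBf hcop hB1

/-- **Key lemma.** `s ^ 2` inverts `V`. -/
theorem sq_inverts (v : V) : (s ^ 2) v = v⁻¹ := by
  classical
  haveI : Fintype B := Fintype.ofFinite B
  -- the maps `y ↦ y * s^k y⁻¹ s^-k`
  let c : ℕ → B → MulAut V := fun k y => (y : MulAut V) * (s ^ k * (y : MulAut V)⁻¹ * (s ^ k)⁻¹)
  have hBpow : ∀ (k : ℕ), ∀ b ∈ B, s ^ k * b * (s ^ k)⁻¹ ∈ B := by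
    intro k
    induction k with
    | zero => intro b hb; simpa using hb
    | succ k ih =>
      intro b hb
      have h1 := ih _ (hBs b hb)
      have : s ^ (k + 1) * b * (s ^ (k + 1))⁻¹ = s ^ k * (s * b * s⁻¹) * (s ^ k)⁻¹ := by
        rw [pow_succ]; group
      rw [this]
      exact h1
  have hcmem : ∀ k (y : B), c k y ∈ B := fun k y => B.mul_mem y.2 (by
    have := hBpow k _ (B.inv_mem y.2)
    exact this)
  -- Rewriting the conjugates.
  have ht : ∀ (k : ℕ) (y : B), (y : MulAut V) * s ^ k * (y : MulAut V)⁻¹ = c k y * s ^ k := by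
    intro k y
    simp only [c]
    group
  have hfixy : ∀ (y : B), ∀ w, ((y : MulAut V) * s * (y : MulAut V)⁻¹) w = w → w = 1 := by
    intro y w hw
    have h1 : s ((y : MulAut V)⁻¹ w) = (y : MulAut V)⁻¹ w := by
      have h2 : (y : MulAut V)⁻¹ (((y : MulAut V) * s * (y : MulAut V)⁻¹) w) = (y : MulAut V)⁻¹ w := by rw [hw]
      simpa [MulAut.mul_apply] using h2
    have h3 := hfix _ h1
    have h4 : w = (y : MulAut V) ((y : MulAut V)⁻¹ w) := by simp
    rw [h4, h3, map_one]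
  -- The pointwise identity.
  have hid : ∀ (y : B) (w : V), w * (c 1 y * s) w * (c 2 y * s ^ 2) w * (c 3 y * s ^ 3) w = 1 := by
    intro y w
    set t : MulAut V := (y : MulAut V) * s * (y : MulAut V)⁻¹ with htdef
    have ht4 : t ^ 4 = 1 := by
      rw [htdef, conj_pow, hs]
      simp
    have h := norm_eq_one t ht4 (hfixy y) w
    have e1 : t = c 1 y * s := by
      have := ht 1 y
      rwa [pow_one] at this
    have e2 : t ^ 2 = c 2 y * s ^ 2 := by
      rw [htdef, conj_pow, ht]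
    have e3 : t ^ 3 = c 3 y * s ^ 3 := by
      rw [htdef, conj_pow, ht]
    rw [e2, e3] at h
    rw [e1] at h
    exact h
  -- The total over `B`.
  have hT : ∀ w : V, ∏ b : B, (b : MulAut V) w = 1 := by
    intro w
    apply hB1
    intro a ha
    rw [map_prod]
    have : ∏ x : B, a (((x : B) : MulAut V) w) = ∏ x : B, ((⟨a, ha⟩ * x : B) : MulAut V) w := by
      apply Finset.prod_congr rfl
      intro x _
      rfl
    rw [this]
    exact (Fintype.prod_bijective (fun x : B => (⟨a, ha⟩ : B) * x) (Group.mulLeft_bijective _) _ _ (fun _ => rfl))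
  -- bijectivity
  have hbij : ∀ k, (∀ x ∈ B, s ^ k * x * (s ^ k)⁻¹ = x → x = 1) →
      Function.Bijective (fun y : B => (⟨c k y, hcmem k y⟩ : B)) := by
    intro k hk
    apply Finite.injective_iff_bijective.1
    intro y y' hyy
    have h0 : c k y = c k y' := congrArg Subtype.val hyy
    have hcomm : ((y : MulAut V)) * (y' : MulAut V)⁻¹ = (y' : MulAut V)⁻¹ * (y : MulAut V) :=
      hBc _ y.2 _ (B.inv_mem y'.2)
    have h1 : s ^ k * ((y : MulAut V) * (y' : MulAut V)⁻¹) * (s ^ k)⁻¹ = (y : MulAut V) * (y' : MulAut V)⁻¹ := by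
      simp only [c] at h0
      have h1' := hBc _ (B.inv_mem (hBpow k _ y'.2)) _ (hBpow k _ y.2)
      have h2' := hBc _ y.2 _ (B.inv_mem y'.2)
      have e1 : s ^ k * (y : MulAut V)⁻¹ * (s ^ k)⁻¹ = (s ^ k * (y : MulAut V) * (s ^ k)⁻¹)⁻¹ := by group
      have e2 : s ^ k * (y' : MulAut V)⁻¹ * (s ^ k)⁻¹ = (s ^ k * (y' : MulAut V) * (s ^ k)⁻¹)⁻¹ := by group
      rw [e1, e2] at h0
      have e3 : s ^ k * ((y : MulAut V) * (y' : MulAut V)⁻¹) * (s ^ k)⁻¹ =
          (s ^ k * (y : MulAut V) * (s ^ k)⁻¹) * (s ^ k * (y' : MulAut V) * (s ^ k)⁻¹)⁻¹ := by group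
      rw [e3]
      exact aux _ _ _ _ h0 h2'.symm h1'
    have h2 := hk _ (B.mul_mem y.2 (B.inv_mem y'.2)) h1
    apply Subtype.ext
    exact mul_inv_eq_one.1 h2
  have hodd1 : ∀ x ∈ B, s ^ 1 * x * (s ^ 1)⁻¹ = x → x = 1 := by
    intro x hx h
    rw [pow_one] at h
    exact hBf x hx h
  have hodd3 : ∀ x ∈ B, s ^ 3 * x * (s ^ 3)⁻¹ = x → x = 1 := by
    intro x hx h
    apply hBf x hx
    have h4 : s ^ 4 * x * (s ^ 4)⁻¹ = s * x * s⁻¹ := by
      have : s ^ 4 * x * (s ^ 4)⁻¹ = s * (s ^ 3 * x * (s ^ 3)⁻¹) * s⁻¹ := by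
        rw [pow_succ' s 3]; group
      rw [this, h]
    rw [← h4, hs]
    simp
  have hP1 : ∀ w : V, ∏ y : B, (c 1 y) w = 1 := by
    intro w
    rw [← hT w]
    exact Fintype.prod_bijective _ (hbij 1 hodd1) _ _ (fun _ => rfl)
  have hP3 : ∀ w : V, ∏ y : B, (c 3 y) w = 1 := by
    intro w
    rw [← hT w]
    exact Fintype.prod_bijective _ (hbij 3 hodd3) _ _ (fun _ => rfl)
  -- the total identity
  set D : V → V := fun x => ∏ y : B, (c 2 y) x with hD
  have hE : ∀ w : V, w ^ Nat.card B * D ((s ^ 2) w) = 1 := by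
    intro w
    have h := Finset.prod_congr (s₁ := (Finset.univ : Finset B)) rfl (fun y _ => hid y w)
    rw [Finset.prod_mul_distrib, Finset.prod_mul_distrib, Finset.prod_mul_distrib] at h
    have h1 : ∏ y : B, (c 1 y * s) w = 1 := hP1 (s w)
    have h3 : ∏ y : B, (c 3 y * s ^ 3) w = 1 := hP3 ((s ^ 3) w)
    rw [h1, h3, mul_one, mul_one, Finset.prod_const, Finset.card_univ, ← Nat.card_eq_fintype_card,
      Finset.prod_const_one] at h
    exact h
  have hs22 : ∀ w : V, (s ^ 2) ((s ^ 2) w) = w := by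
    intro w
    have : (s ^ 4) w = (s ^ 2) ((s ^ 2) w) := by
      rw [show (4 : ℕ) = 2 + 2 from rfl, pow_add]; rfl
    rw [← this, hs]; rfl
  -- `c 2` is multiplicative
  have hc2mul : ∀ y y' : B, c 2 (y * y') = c 2 y * c 2 y' := by
    intro y y'
    simp only [c, Subgroup.coe_mul]
    have e1 : s ^ 2 * ((y : MulAut V) * (y' : MulAut V))⁻¹ * (s ^ 2)⁻¹ =
        (s ^ 2 * (y' : MulAut V)⁻¹ * (s ^ 2)⁻¹) * (s ^ 2 * (y : MulAut V)⁻¹ * (s ^ 2)⁻¹) := by group
    rw [e1]
    have hY := hBpow 2 _ (B.inv_mem y.2)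
    have hY' := hBpow 2 _ (B.inv_mem y'.2)
    exact aux2 _ _ _ _ (hBc _ (B.mul_mem y'.2 hY') _ hY) (hBc _ y'.2 _ hY) 
  have hDfix : ∀ (y₀ : B) (x : V), (c 2 y₀) (D x) = D x := by
    intro y₀ x
    simp only [hD]
    rw [map_prod]
    have : ∏ y : B, (c 2 y₀) ((c 2 y) x) = ∏ y : B, (c 2 (y₀ * y)) x := by
      apply Finset.prod_congr rfl
      intro y _
      rw [hc2mul]
      rfl
    rw [this]
    exact Fintype.prod_bijective (fun y : B => y₀ * y) (Group.mulLeft_bijective _) _ _ (fun _ => rfl)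
  -- `c 2` is trivial
  have hc21 : ∀ (y₀ : B) (x : V), (c 2 y₀) x = x := by
    intro y₀ x
    -- `x` is a `|B|`-th power
    have hsurj : Function.Surjective (fun w : V => w ^ Nat.card B) :=
      (powCoprime hcop.symm).surjective
    obtain ⟨w, rfl⟩ := hsurj x
    have h1 := hE w
    have h2 : D ((s ^ 2) w) = (w ^ Nat.card B)⁻¹ := (eq_inv_of_mul_eq_one_right h1)
    have h3 := hDfix y₀ ((s ^ 2) w)
    rw [h2, map_inv] at h3
    exact inv_injective h3
  have hDpow : ∀ x : V, D x = x ^ Nat.card B := by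
    intro x
    simp only [hD, hc21, Finset.prod_const, Finset.card_univ, Nat.card_eq_fintype_card]
  have h1 := hE v
  rw [hDpow, ← mul_pow] at h1
  have h2 : v * (s ^ 2) v = 1 := by
    have h3 : orderOf (v * (s ^ 2) v) ∣ Nat.card B := orderOf_dvd_of_pow_eq_one h1
    have h4 : orderOf (v * (s ^ 2) v) ∣ Nat.card V := orderOf_dvd_natCard _
    have h5 := Nat.eq_one_of_dvd_coprimes hcop h3 h4
    exact orderOf_eq_one_iff.1 h5
  exact eq_inv_of_mul_eq_one_right h2

end Main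

end Cfsg.Agent.Lib.SigmaFour.Norm
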